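import Cfsg.Agent.Lib.Helper43.FXSP.Conj

/-!
# Project FXSP (S5975), package [AUT]
-/

set_option autoImplicit false
open scoped Matrix

namespace Cfsg.Agent.Lib.Helper43.FXSP

open Cfsg.Geo Cfsg.Agent.Lib.Helper4.FXSP

universe u

/-- [AUT] an element of `N(K)` of prime order `r` not centralizing `K` has `r ∣ k`. -/
theorem pkgAut : PkgAut.{u} := by
  intro F _ _ d k K hK r hr y hy hyr hex
  obtain ⟨a, haK, hne⟩ := hex
  classical
  have h01 : (0 : Md d F) ≠ 1 := by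
    intro h
    apply hne
    have h0 : ∀ M : Md d F, M = 0 := fun M => by rw [← mul_one M, ← h, mul_zero]
    rw [h0 ((y : Md d F) * a), h0 (a * (y : Md d F))]
  letI : Field ↥K := fieldOfSubI K h01 hK.comm hK.inv
  haveI : Fact r.Prime := ⟨hr⟩
  have hσr : (conjMonoidHom K ⟨y, hy⟩) ^ r = 1 := by
    rw [← map_pow]
    have : (⟨y, hy⟩ : ↥(subalgebraNormalizer K)) ^ r = 1 := Subtype.ext hyr
    rw [this, map_one]
  have hσ1 : conjMonoidHom K ⟨y, hy⟩ ≠ 1 := by
    intro h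
    apply hne
    have h2 : ((conjEquiv K ⟨y, hy⟩ ⟨a, haK⟩ : ↥K) : Md d F) = a := by
      have h3 : conjEquiv K ⟨y, hy⟩ = 1 := h
      rw [h3]
      rfl
    rw [conjEquiv_apply] at h2
    exact (conj_eq_iff y a).mp h2
  have hord : orderOf (conjMonoidHom K ⟨y, hy⟩) = r := orderOf_eq_prime hσr hσ1
  have hcard : Nat.card (↥K ≃ₐ[F] ↥K) = Module.finrank F ↥K :=
    IsGalois.card_aut_eq_finrank F ↥K
  rw [← hK.finrank_eq, ← hcard, ← hord]
  exact orderOf_dvd_natCard _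

end Cfsg.Agent.Lib.Helper43.FXSP
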