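import Cfsg.Agent.Lib.Helper4.FXSP.Defs

/-!
# Project FXSP (S5975): conjugation by the normalizer of a field subalgebra

Shared lemmas for the packages [AUT] and [SEMI].
-/

set_option autoImplicit false
open scoped Matrix

namespace Cfsg.Agent.Lib.Helper43.FXSP

open Cfsg.Geo

universe u

section conj

variable {F : Type u} [Field F] {ι : Type} [Fintype ι] [DecidableEq ι]

/-- conjugation by an element of the normalizer, as an algebra endomorphism of `K` -/
def conjHom (K : Subalgebra F (Matrix ι ι F)) (g : ↥(subalgebraNormalizer K)) : ↥K →ₐ[F] ↥K where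
  toFun a := ⟨((g : GL ι F) : Matrix ι ι F) * a * (((g : GL ι F)⁻¹ : GL ι F) : Matrix ι ι F),
    (g.2 a).mp a.2⟩
  map_one' := Subtype.ext (by
    show ((g : GL ι F) : Matrix ι ι F) * 1 * (((g : GL ι F)⁻¹ : GL ι F) : Matrix ι ι F) = 1
    rw [mul_one, ← Units.val_mul, mul_inv_cancel, Units.val_one])
  map_mul' a b := Subtype.ext (by
    show ((g : GL ι F) : Matrix ι ι F) * ((a : Matrix ι ι F) * b) *
        (((g : GL ι F)⁻¹ : GL ι F) : Matrix ι ι F) =
      ((g : GL ι F) : Matrix ι ι F) * a * (((g : GL ι F)⁻¹ : GL ι F) : Matrix ι ι F) *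
        (((g : GL ι F) : Matrix ι ι F) * b * (((g : GL ι F)⁻¹ : GL ι F) : Matrix ι ι F))
    have h : (((g : GL ι F)⁻¹ : GL ι F) : Matrix ι ι F) * ((g : GL ι F) : Matrix ι ι F) = 1 := by
      rw [← Units.val_mul, inv_mul_cancel, Units.val_one]
    calc ((g : GL ι F) : Matrix ι ι F) * ((a : Matrix ι ι F) * b) *
          (((g : GL ι F)⁻¹ : GL ι F) : Matrix ι ι F)
        = ((g : GL ι F) : Matrix ι ι F) * a * (1 * (b * (((g : GL ι F)⁻¹ : GL ι F) : Matrix ι ι F))) := by
          rw [one_mul]; simp only [mul_assoc]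
      _ = _ := by rw [← h]; simp only [mul_assoc])
  map_zero' := Subtype.ext (by
    show ((g : GL ι F) : Matrix ι ι F) * 0 * (((g : GL ι F)⁻¹ : GL ι F) : Matrix ι ι F) = 0
    rw [mul_zero, zero_mul])
  map_add' a b := Subtype.ext (by
    show ((g : GL ι F) : Matrix ι ι F) * ((a : Matrix ι ι F) + b) *
        (((g : GL ι F)⁻¹ : GL ι F) : Matrix ι ι F) = _
    rw [mul_add, add_mul]; rfl)
  commutes' r := Subtype.ext (by
    show ((g : GL ι F) : Matrix ι ι F) * (algebraMap F (Matrix ι ι F) r) *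
        (((g : GL ι F)⁻¹ : GL ι F) : Matrix ι ι F) = algebraMap F (Matrix ι ι F) r
    rw [Algebra.algebraMap_eq_smul_one, mul_smul_comm, mul_one, smul_mul_assoc,
      ← Units.val_mul, mul_inv_cancel, Units.val_one])

theorem conjHom_apply (K : Subalgebra F (Matrix ι ι F)) (g : ↥(subalgebraNormalizer K)) (a : ↥K) :
    ((conjHom K g a : ↥K) : Matrix ι ι F) =
      ((g : GL ι F) : Matrix ι ι F) * a * (((g : GL ι F)⁻¹ : GL ι F) : Matrix ι ι F) := rfl

theorem conjHom_one (K : Subalgebra F (Matrix ι ι F)) : conjHom K 1 = AlgHom.id F ↥K := by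
  apply AlgHom.ext
  intro a
  apply Subtype.ext
  rw [conjHom_apply]
  simp

theorem conjHom_mul (K : Subalgebra F (Matrix ι ι F)) (g h : ↥(subalgebraNormalizer K)) :
    conjHom K (g * h) = (conjHom K g).comp (conjHom K h) := by
  apply AlgHom.ext
  intro a
  apply Subtype.ext
  rw [AlgHom.comp_apply, conjHom_apply, conjHom_apply, conjHom_apply]
  simp only [Subgroup.coe_mul, Units.val_mul, mul_inv_rev, mul_assoc]

/-- conjugation by an element of the normalizer, as an algebra automorphism of `K` -/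
def conjEquiv (K : Subalgebra F (Matrix ι ι F)) (g : ↥(subalgebraNormalizer K)) : ↥K ≃ₐ[F] ↥K :=
  AlgEquiv.ofAlgHom (conjHom K g) (conjHom K g⁻¹)
    (by rw [← conjHom_mul, mul_inv_cancel, conjHom_one])
    (by rw [← conjHom_mul, inv_mul_cancel, conjHom_one])

theorem conjEquiv_apply (K : Subalgebra F (Matrix ι ι F)) (g : ↥(subalgebraNormalizer K)) (a : ↥K) :
    ((conjEquiv K g a : ↥K) : Matrix ι ι F) =
      ((g : GL ι F) : Matrix ι ι F) * a * (((g : GL ι F)⁻¹ : GL ι F) : Matrix ι ι F) := rfl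

/-- `conjEquiv` as a group homomorphism -/
def conjMonoidHom (K : Subalgebra F (Matrix ι ι F)) :
    ↥(subalgebraNormalizer K) →* (↥K ≃ₐ[F] ↥K) where
  toFun := conjEquiv K
  map_one' := by
    apply AlgEquiv.ext
    intro a
    apply Subtype.ext
    rw [conjEquiv_apply]
    simp
  map_mul' g h := by
    apply AlgEquiv.ext
    intro a
    apply Subtype.ext
    rw [AlgEquiv.mul_apply, conjEquiv_apply, conjEquiv_apply, conjEquiv_apply]
    simp only [Subgroup.coe_mul, Units.val_mul, mul_inv_rev, mul_assoc]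

/-- `g a g⁻¹ = a` iff `g a = a g`. -/
theorem conj_eq_iff (g : GL ι F) (a : Matrix ι ι F) :
    (g : Matrix ι ι F) * a * ((g⁻¹ : GL ι F) : Matrix ι ι F) = a ↔
      (g : Matrix ι ι F) * a = a * (g : Matrix ι ι F) := by
  constructor
  · intro h
    calc (g : Matrix ι ι F) * a
        = (g : Matrix ι ι F) * a * (((g⁻¹ : GL ι F) : Matrix ι ι F) * (g : Matrix ι ι F)) := by
          rw [← Units.val_mul, inv_mul_cancel, Units.val_one, mul_one]
      _ = ((g : Matrix ι ι F) * a * ((g⁻¹ : GL ι F) : Matrix ι ι F)) * (g : Matrix ι ι F) := by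
          simp only [mul_assoc]
      _ = a * (g : Matrix ι ι F) := by rw [h]
  · intro h
    rw [h, mul_assoc, ← Units.val_mul, mul_inv_cancel, Units.val_one, mul_one]

open Classical in
/-- The field structure on a commutative subalgebra of matrices whose non-zero elements are
invertible inside it. -/
@[reducible] noncomputable def fieldOfSubI (K : Subalgebra F (Matrix ι ι F))
    (h01 : (0 : Matrix ι ι F) ≠ 1)
    (hc : ∀ x ∈ K, ∀ y ∈ K, x * y = y * x) (hi : ∀ x ∈ K, x ≠ 0 → ∃ y ∈ K, x * y = 1) :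
    Field ↥K where
  __ := (inferInstance : Ring ↥K)
  mul_comm a b := Subtype.ext (hc a a.2 b b.2)
  inv a := if ha : a = 0 then 0 else
    ⟨Classical.choose (hi a a.2 (fun h => ha (Subtype.ext h))),
      (Classical.choose_spec (hi a a.2 (fun h => ha (Subtype.ext h)))).1⟩
  exists_pair_ne := ⟨0, 1, fun h => h01 (congrArg Subtype.val h)⟩
  mul_inv_cancel a ha := by
    apply Subtype.ext
    have h2 := (Classical.choose_spec (hi a a.2 (fun h => ha (Subtype.ext h)))).2
    show (a : Matrix ι ι F) * ((if ha : a = 0 then (0 : ↥K) else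
      ⟨Classical.choose (hi a a.2 (fun h => ha (Subtype.ext h))),
        (Classical.choose_spec (hi a a.2 (fun h => ha (Subtype.ext h)))).1⟩ : ↥K) :
          Matrix ι ι F) = 1
    rw [dif_neg ha]
    exact h2
  inv_zero := dif_pos rfl
  nnqsmul := _
  nnqsmul_def _ _ := rfl
  qsmul := _
  qsmul_def _ _ := rfl

end conj

end Cfsg.Agent.Lib.Helper43.FXSP
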