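import Cfsg.Agent.Lib.Helper43.FXSP.Conj

/-!
# Project FXSP (S5975), package [SEMI]

An element of `N(K)` not centralizing `K` has a small fixed space.
-/

set_option autoImplicit false
open scoped Matrix

namespace Cfsg.Agent.Lib.Helper43.FXSP

open Cfsg.Geo Cfsg.Agent.Lib.Helper4.FXSP

universe u

/-- [SEMI] -/
theorem pkgSemi : PkgSemi.{u} := by
  intro F _ _ d k K hK hk y hy hex
  obtain ⟨a0, ha0K, hne⟩ := hex
  classical
  have h01 : (0 : Md d F) ≠ 1 := by
    intro h
    apply hne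
    have h0 : ∀ M : Md d F, M = 0 := fun M => by rw [← mul_one M, ← h, mul_zero]
    rw [h0 ((y : Md d F) * a0), h0 (a0 * (y : Md d F))]
  haveI : Nontrivial ↥K := ⟨⟨0, 1, fun h => h01 (congrArg Subtype.val h)⟩⟩
  haveI : NoZeroDivisors ↥K := ⟨by
    intro a b hab
    by_cases ha : a = 0
    · exact Or.inl ha
    · right
      obtain ⟨a', ha'K, haa'⟩ := hK.inv a a.2 (fun h => ha (Subtype.ext h))
      have ha'a : a' * (a : Md d F) = 1 := by rw [hK.comm a' ha'K a a.2]; exact haa'
      apply Subtype.ext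
      have h1 : (a : Md d F) * b = 0 := congrArg Subtype.val hab
      calc (b : Md d F) = a' * (a * b) := by rw [← mul_assoc, ha'a, one_mul]
        _ = 0 := by rw [h1, mul_zero]⟩
  haveI : IsDomain ↥K := NoZeroDivisors.to_isDomain ↥K
  haveI := Subalgebra.isSimpleOrder_of_finrank_prime F ↥K (by rw [hK.finrank_eq]; exact hk)
  -- the elements of `K` commuting with `y` are scalars
  have hfix : ∀ a : ↥K, conjHom K ⟨y, hy⟩ a = a → ∃ l : F, a = algebraMap F ↥K l := by
    intro a ha
    rcases eq_bot_or_eq_top (AlgHom.equalizer (conjHom K ⟨y, hy⟩) (AlgHom.id F ↥K)) with h | h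
    · have hmem : a ∈ AlgHom.equalizer (conjHom K ⟨y, hy⟩) (AlgHom.id F ↥K) := ha
      rw [h, Algebra.mem_bot] at hmem
      obtain ⟨l, hl⟩ := hmem
      exact ⟨l, hl.symm⟩
    · exfalso
      have hmem : (⟨a0, ha0K⟩ : ↥K) ∈ AlgHom.equalizer (conjHom K ⟨y, hy⟩) (AlgHom.id F ↥K) := by
        rw [h]; trivial
      have h2 : conjHom K ⟨y, hy⟩ ⟨a0, ha0K⟩ = ⟨a0, ha0K⟩ := hmem
      have h3 := congrArg Subtype.val h2
      rw [conjHom_apply] at h3
      exact hne ((conj_eq_iff y a0).mp h3)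
  -- the fixed space
  obtain ⟨W, hW⟩ : ∃ W : Submodule F (Vd d F), W = LinearMap.ker ((y : Md d F) - 1).mulVecLin :=
    ⟨_, rfl⟩
  obtain ⟨s, hs⟩ : ∃ s : ℕ, s = Module.finrank F W := ⟨_, rfl⟩
  have hrank : ((y : Md d F) - 1).rank + s = 2 * d := by
    have h1 := LinearMap.finrank_range_add_finrank_ker ((y : Md d F) - 1).mulVecLin
    rw [Module.finrank_fintype_fun_eq_card, Fintype.card_sum, Fintype.card_fin, ← hW, ← hs] at h1
    have h2 : ((y : Md d F) - 1).rank =
        Module.finrank F (LinearMap.range ((y : Md d F) - 1).mulVecLin) := rfl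
    omega
  have b : Module.Basis (Fin s) F W := by
    rw [hs]; exact Module.finBasis F W
  have hWle : ∀ w ∈ W, ((y : Md d F) - 1).mulVecLin w = 0 := by
    intro w hw
    rw [hW] at hw
    exact LinearMap.mem_ker.mp hw
  have hu_fix : ∀ j, (y : Md d F) *ᵥ (b j : Vd d F) = (b j : Vd d F) := by
    intro j
    have h1 := hWle _ (b j).2
    rw [Matrix.mulVecLin_apply, Matrix.sub_mulVec, Matrix.one_mulVec, sub_eq_zero] at h1
    exact h1
  have hyinv : ∀ j, ((y⁻¹ : GL (Fin d ⊕ Fin d) F) : Md d F) *ᵥ (b j : Vd d F) = (b j : Vd d F) := by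
    intro j
    calc ((y⁻¹ : GL (Fin d ⊕ Fin d) F) : Md d F) *ᵥ (b j : Vd d F)
        = ((y⁻¹ : GL (Fin d ⊕ Fin d) F) : Md d F) *ᵥ ((y : Md d F) *ᵥ (b j : Vd d F)) := by
          rw [hu_fix]
      _ = (b j : Vd d F) := by
          rw [Matrix.mulVec_mulVec, ← Units.val_mul, inv_mul_cancel, Units.val_one,
            Matrix.one_mulVec]
  have hu_li : LinearIndependent F (fun j => (b j : Vd d F)) :=
    b.linearIndependent.map' W.subtype (Submodule.ker_subtype W)
  -- `Ψ c = ∑ j, c j *ᵥ u j`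
  let Ψ : (Fin s → ↥K) →ₗ[F] Vd d F :=
    { toFun := fun c => ∑ j, (c j : Md d F) *ᵥ (b j : Vd d F)
      map_add' := by
        intro c c'
        simp [Matrix.add_mulVec, Finset.sum_add_distrib]
      map_smul' := by
        intro r c
        simp [Matrix.smul_mulVec, Finset.smul_sum] }
  have hΨdef : ∀ c : Fin s → ↥K, Ψ c = ∑ j, (c j : Md d F) *ᵥ (b j : Vd d F) := fun c => rfl
  have key : ∀ n : ℕ, ∀ c : Fin s → ↥K,
      (Finset.univ.filter (fun j => c j ≠ 0)).card ≤ n → Ψ c = 0 → c = 0 := by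
    intro n
    induction n with
    | zero =>
      intro c hc _
      funext j
      by_contra hj
      have h1 : j ∈ Finset.univ.filter (fun j => c j ≠ 0) :=
        Finset.mem_filter.mpr ⟨Finset.mem_univ _, hj⟩
      have h2 := Finset.card_pos.mpr ⟨j, h1⟩
      omega
    | succ n ih =>
      intro c hc hΨc
      by_contra hc0
      obtain ⟨j0, hj0⟩ : ∃ j0, c j0 ≠ 0 := by
        by_contra h
        push_neg at h
        exact hc0 (funext h)
      obtain ⟨binv, hbK, hb⟩ := hK.inv (c j0) (c j0).2 (fun h => hj0 (Subtype.ext h))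
      have hbb1 : (⟨binv, hbK⟩ : ↥K) * c j0 = 1 := Subtype.ext (by
        show binv * (c j0 : Md d F) = 1
        rw [hK.comm binv hbK _ (c j0).2]; exact hb)
      have hΨc1 : Ψ (fun j => (⟨binv, hbK⟩ : ↥K) * c j) = 0 := by
        rw [hΨdef]
        have e : ∀ j, (((⟨binv, hbK⟩ : ↥K) * c j : ↥K) : Md d F) *ᵥ (b j : Vd d F) =
            binv *ᵥ ((c j : Md d F) *ᵥ (b j : Vd d F)) := by
          intro j; rw [Matrix.mulVec_mulVec]; rfl
        simp only [e]
        rw [← Matrix.mulVec_sum, ← hΨdef, hΨc, Matrix.mulVec_zero]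
      have hΨc2 : Ψ (fun j => conjHom K ⟨y, hy⟩ ((⟨binv, hbK⟩ : ↥K) * c j) -
          (⟨binv, hbK⟩ : ↥K) * c j) = 0 := by
        rw [hΨdef]
        have e : ∀ j, ((conjHom K ⟨y, hy⟩ ((⟨binv, hbK⟩ : ↥K) * c j) -
            (⟨binv, hbK⟩ : ↥K) * c j : ↥K) : Md d F) *ᵥ (b j : Vd d F) =
            (y : Md d F) *ᵥ ((((⟨binv, hbK⟩ : ↥K) * c j : ↥K) : Md d F) *ᵥ (b j : Vd d F)) -
              (((⟨binv, hbK⟩ : ↥K) * c j : ↥K) : Md d F) *ᵥ (b j : Vd d F) := by
          intro j
          show (((conjHom K ⟨y, hy⟩ ((⟨binv, hbK⟩ : ↥K) * c j) : ↥K) : Md d F) -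
            (((⟨binv, hbK⟩ : ↥K) * c j : ↥K) : Md d F)) *ᵥ (b j : Vd d F) = _
          rw [Matrix.sub_mulVec, conjHom_apply]
          congr 1
          rw [← Matrix.mulVec_mulVec, hyinv, ← Matrix.mulVec_mulVec]
        simp only [e]
        rw [Finset.sum_sub_distrib, ← Matrix.mulVec_sum, ← hΨdef, hΨc1, Matrix.mulVec_zero,
          sub_zero]
      have hsupp : (Finset.univ.filter (fun j => conjHom K ⟨y, hy⟩ ((⟨binv, hbK⟩ : ↥K) * c j) -
          (⟨binv, hbK⟩ : ↥K) * c j ≠ 0)).card ≤ n := by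
        have hsub : Finset.univ.filter (fun j => conjHom K ⟨y, hy⟩ ((⟨binv, hbK⟩ : ↥K) * c j) -
            (⟨binv, hbK⟩ : ↥K) * c j ≠ 0) ⊆
            (Finset.univ.filter (fun j => c j ≠ 0)).erase j0 := by
          intro j hj
          rw [Finset.mem_filter] at hj
          rw [Finset.mem_erase, Finset.mem_filter]
          refine ⟨?_, Finset.mem_univ _, ?_⟩
          · rintro rfl
            apply hj.2
            rw [hbb1, map_one, sub_self]
          · intro hcj
            apply hj.2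
            rw [hcj, mul_zero, map_zero, sub_self]
        have h1 := Finset.card_le_card hsub
        have hmem : j0 ∈ Finset.univ.filter (fun j => c j ≠ 0) :=
          Finset.mem_filter.mpr ⟨Finset.mem_univ _, hj0⟩
        have h2 := Finset.card_erase_of_mem hmem
        omega
      have hc2 := ih _ hsupp hΨc2
      have hfixed : ∀ j, conjHom K ⟨y, hy⟩ ((⟨binv, hbK⟩ : ↥K) * c j) =
          (⟨binv, hbK⟩ : ↥K) * c j := fun j => sub_eq_zero.mp (congrFun hc2 j)
      choose l hl using fun j => hfix _ (hfixed j)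
      have hsum : ∑ j, l j • (b j : Vd d F) = 0 := by
        have e : ∀ j, l j • (b j : Vd d F) =
            (((⟨binv, hbK⟩ : ↥K) * c j : ↥K) : Md d F) *ᵥ (b j : Vd d F) := by
          intro j
          rw [hl j]
          show _ = (algebraMap F (Md d F) (l j)) *ᵥ (b j : Vd d F)
          rw [Algebra.algebraMap_eq_smul_one, Matrix.smul_mulVec, Matrix.one_mulVec]
        simp only [e]
        rw [← hΨdef]
        exact hΨc1
      have hl0 : ∀ j, l j = 0 := Fintype.linearIndependent_iff.mp hu_li l hsum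
      have h1 : (⟨binv, hbK⟩ : ↥K) * c j0 = 0 := by rw [hl j0, hl0 j0, map_zero]
      rw [hbb1] at h1
      exact one_ne_zero h1
  have hΨ : Function.Injective Ψ := by
    rw [injective_iff_map_eq_zero]
    intro c hc
    exact key _ c le_rfl hc
  have hle := LinearMap.finrank_le_finrank_of_injective hΨ
  rw [Module.finrank_pi_fintype, Module.finrank_fintype_fun_eq_card, Fintype.card_sum,
    Fintype.card_fin] at hle
  simp only [Finset.sum_const, Finset.card_univ, Fintype.card_fin, smul_eq_mul,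
    hK.finrank_eq] at hle
  have h3 : 2 * d - ((y : Md d F) - 1).rank = s := by omega
  rw [h3, mul_comm]
  omega

end Cfsg.Agent.Lib.Helper43.FXSP
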